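import Cfsg.Agent.H40.Lev3
import Cfsg.Agent.H40.E6b

/-!
Stem extensions of the twisted groups of type E₆.
-/

set_option autoImplicit false

namespace Cfsg.Agent.H40

open Cfsg.Lie Cfsg.Agent.H37
open scoped commutatorElement

/-- the orbits of positive roots -/
def OsE6 : List (List ℕ) := [[36, 56], [37, 42], [39], [46], [38, 57], [40, 43], [47], [41, 58], [44], [48, 50],
  [45, 59], [49, 61], [51], [52, 62], [53], [60], [54, 64], [63], [55, 67], [65], [66, 68], [69], [70], [71]]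

theorem levE6 : LevOK CE6 0 OsE6 := by decide +kernel

/-- coroots separating two orbits -/
def WE6 (k i : ℕ) : ℕ := ([[38], [39, 38], [44, 36, 40], [37, 36, 37, 47], [39, 44, 36, 36, 36],
  [39, 46, 36, 36, 44, 41], [39, 36, 40, 37, 36, 36, 39], [39, 44, 36, 36, 46, 44, 36, 36],
  [38, 38, 36, 36, 39, 38, 36, 39, 37], [44, 39, 36, 36, 39, 39, 36, 39, 38, 49],
  [46, 39, 44, 37, 39, 39, 39, 39, 38, 44, 38], [46, 39, 36, 36, 39, 39, 36, 39, 48, 44, 60, 36],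
  [38, 38, 36, 36, 40, 38, 36, 40, 39, 38, 38, 39, 37], [39, 44, 47, 37, 46, 44, 40, 60, 38, 39, 39, 39, 38, 38],
  [37, 41, 36, 36, 37, 41, 36, 37, 37, 39, 37, 37, 37, 37, 39],
  [37, 39, 36, 36, 37, 39, 36, 37, 37, 49, 37, 37, 37, 37, 39, 36],
  [39, 44, 46, 37, 60, 44, 40, 46, 38, 39, 39, 39, 38, 46, 37, 37, 41],
  [37, 41, 36, 36, 37, 41, 36, 37, 37, 39, 37, 37, 37, 37, 46, 39, 37, 36],
  [60, 39, 36, 36, 39, 39, 36, 39, 46, 44, 46, 46, 39, 39, 37, 37, 39, 37, 37],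
  [38, 38, 36, 36, 40, 38, 36, 40, 39, 38, 38, 39, 46, 38, 37, 37, 38, 37, 39, 36],
  [44, 39, 36, 36, 39, 39, 36, 39, 38, 46, 44, 44, 38, 39, 39, 46, 39, 39, 44, 38, 38],
  [39, 36, 40, 37, 36, 36, 46, 36, 36, 36, 39, 36, 36, 40, 36, 36, 40, 36, 36, 36, 36, 37],
  [37, 36, 37, 47, 36, 36, 37, 36, 36, 36, 37, 36, 36, 37, 36, 36, 37, 36, 36, 36, 36, 37, 39],
  [37, 36, 37, 39, 36, 36, 37, 36, 36, 36, 37, 36, 36, 37, 36, 36, 37, 36, 36, 36, 36, 37, 39, 46]].getD k []).getD i 0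

/-- exponents of the character of level `k` on the twisted coroot `s` -/
def exE (s k : ℕ) : ℤ × ℤ :=
  (pa chevE6 (cor chevE6 s) (ok OsE6 k).headI, pa chevE6 (fun i => cor chevE6 s (piE6 i)) (ok OsE6 k).headI)

/-- admissible exponents -/
def gdE : List (ℤ × ℤ) := [(1, 1), (-1, -1), (1, 0), (0, 1), (-1, 0), (0, -1)]

set_option synthInstance.maxSize 1000 in
theorem sepE6 : ∀ k < 24, (∀ i < k, exE (WE6 k i) i = (0, 0) ∧ exE (WE6 k i) k ∈ gdE ∨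
    exE (WE6 k i) i ∈ gdE ∧ exE (WE6 k i) k = (0, 0)) ∧ exE (WE6 k k) k ∈ gdE ∧
      (exE (WE6 k k) k = (1, 0) ∨ ok OsE6 k = [(ok OsE6 k).headI]) := by decide +kernel

variable {K : Type*} [Field K] {φ : K →+* K}

theorem torE6 (h2 : ∀ t, φ^[2] t = t) (s : ℕ) (c : Kˣ) : ∃ h ∈ ((TE φ).filt levE6 Int.cast_zero).H, ∀ k < 24,
    ((TE φ).filt levE6 Int.cast_zero).χ k h = (c : K) ^ (exE s k).1 * φ c ^ (exE s k).2 := by
  have h1 := isH_hh (SE K) ((fun i => c ^ cor chevE6 s i) * fun i => Units.map (φ : K →* K) c ^ cor chevE6 s (piE6 i))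
  refine ⟨_, ⟨h1.1, (TE φ).mt.H_le_G h1.1, (((TE φ).isH_σ (matRel_adj _ _) piE6 piE6 (by decide +kernel) h1).congr
    fun i hi => ?_).uniq (matRel_adj _ _) h1⟩, fun k hk => ?_⟩
  · have h3 : piE6 (piE6 i) = i := by revert i; decide +kernel
    have h4 : Units.map (φ : K →* K) (Units.map (φ : K →* K) c) = c := Units.ext (h2 c)
    simp only [TE_e, Pi.mul_apply, map_mul, map_zpow, h3, h4, mul_comm]
  · rw [(TE φ).filt_χ _ _ hk h1, chi_mul, chi_zpow, chi_zpow]; simp [exE]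

theorem gdE_ne {c : K} (hc : c * φ c ≠ 1) {e : ℤ × ℤ} (he : e ∈ gdE) : c ^ e.1 * φ c ^ e.2 ≠ 1 := by
  have h1 : c ≠ 1 := by rintro rfl; simp at hc
  have h2 : φ c ≠ 1 := fun h => h1 (φ.injective (h.trans (map_one φ).symm))
  simp only [gdE, List.mem_cons, List.not_mem_nil, or_false] at he
  have h3 : c⁻¹ * (φ c)⁻¹ ≠ 1 := by rwa [← mul_inv, Ne, inv_eq_one]
  obtain rfl | rfl | rfl | rfl | rfl | rfl := he <;> simp [hc, h1, h2, h3]

variable [Fintype K] {q : ℕ} (hq : IsPrimePow q) (hK : Fintype.card K = q ^ 2) (hφ : ∀ t, φ t = t ^ q)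
include hq hK hφ

theorem ppart_E6 (h2 : q ≠ 2) {E : Type*} [Group E] {π : E →* GL chevE6.Idx K} (hc : π.ker ≤ Subgroup.center E)
    (hs : ∀ g ∈ (TE φ).mt.Fix, ∃ e, π e = g) : π.ker ⊓ ⁅((TE φ).mt.U ⊓ (TE φ).mt.Fix).comap π,
      ((TE φ).mt.U ⊓ (TE φ).mt.Fix).comap π⁆ = ⊥ := by
  have h3 : 3 ≤ q := by have := hq.two_le; omega
  obtain ⟨c, hc0⟩ := exists_pow_ne_one (K := K) (n := q + 1) (by omega) (by rw [hK]; nlinarith)
  have h4 : (c : K) * φ c ≠ 1 := by rw [hφ, ← pow_succ', ← Units.val_pow_eq_pow_val]; exact fun h => hc0 (Units.ext h)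
  have ht := torE6 (frob_iter_self hK hφ)
  have hC := (TE φ).cov levE6 Int.cast_zero hc hs
  rw [← (TE φ).filt_V0 levE6 Int.cast_zero]
  refine Filt.final_of_torus hC (show 0 < 24 by decide) (fun k hk => ?_) fun k hk M hM i hi hl => ?_
  · obtain ⟨h, hh, e⟩ := ht (WE6 k k) c
    exact ⟨h, hh, e k hk ▸ gdE_ne h4 (sepE6 k hk).2.1⟩
  rcases hi.lt_or_eq with hi | rfl
  · obtain ⟨h, hh, e⟩ := ht (WE6 k i) c
    refine Filt.c_tsep hC hM (Filt.comm_succ i) hl (hM.cent_right hC i) (hi.trans hk) hk hh ?_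
    rw [e k hk, e i (hi.trans hk)]
    exact ((sepE6 k hk).1 i hi).imp (fun h => ⟨by simp [h.1], gdE_ne h4 h.2⟩) fun h => ⟨gdE_ne h4 h.1, by simp [h.2]⟩
  rcases (sepE6 i hk).2.2 with h5 | h5
  · refine Filt.c_scal hC hM (Filt.comm_succ i) hl (hM.cent_right hC i) hk hk (fun a ha => ?_)
      (exists_scal (by rw [hK]; nlinarith))
    obtain ⟨h, hh, e⟩ := ht (WE6 i i) (Units.mk0 a ha)
    exact ⟨h, hh, by simp [e i hk, h5]⟩
  · exact Filt.c_gen hC hM (Filt.comm_succ i) hl (hM.cent_right hC i) hk hk ((TE φ).filt_single _ _ hk h5)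
      ((TE φ).filt_single _ _ hk h5) (((TE φ).cent_long levE6 Int.cast_zero hc hs (TE_e φ) (a := 46) (b := 70)
        (r := 71) (n := 23) (ε := 1) rfl rfl (by decide +kernel) (by decide +kernel) i (Nat.le_of_lt_succ hk) _ h5).mono
        bot_le le_rfl le_rfl)

theorem card_ker_dvd_E6 (h2 : q ≠ 2) {Γ : Type*} [Group Γ] [Finite Γ] {σ : Γ →* (TE φ).mt.Fix}
    (hσ : IsStemExtension σ) : Nat.card σ.ker ∣ Nat.gcd 3 (q + 1) := by
  have e := Fix_E6 (frob_iter_self hK hφ) hφ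
  obtain ⟨p, k, hp, hk, hpk⟩ := (isPrimePow_nat_iff q).1 hq
  have hpq : p ∣ q := hpk ▸ dvd_pow_self p hk.ne'
  have hU : Nat.card ↥((TE φ).mt.U ⊓ (TE φ).mt.Fix) = p ^ (k * 36) := by
    rw [(TE φ).mt_U', e, card_U1_E6 hq hK hφ, pow_mul, hpk]
  obtain ⟨π, h1, -, ⟨L⟩, hs, hgen⟩ := (TE φ).mt.lift_of_stem hσ hp hU
    (N := (q ^ 2 - 1) * (q ^ 5 + 1) * (q ^ 6 - 1) * (q ^ 8 - 1) * (q ^ 9 + 1) * (q ^ 12 - 1)) (by
      simp only [hp.dvd_mul, not_or]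
      have h3 := fun n hn => not_dvd_pow_sub (n := n) hp hpq hq.pos hn
      have h4 := fun n hn => not_dvd_add_one hp (dvd_pow (n := n) hpq hn)
      exact ⟨⟨⟨⟨⟨h3 _ (by decide), h4 _ (by decide)⟩, h3 _ (by decide)⟩, h3 _ (by decide)⟩, h4 _ (by decide)⟩,
        h3 _ (by decide)⟩)
    (d := Nat.gcd 3 (q + 1)) (by rw [e, card_E6 hq hK hφ, pow_mul, hpk]; ring) (ppart_E6 hq hK hφ h2)
  have h5 := fun j => (TE φ).sl2_orb (TE_e φ) (orbE6 j) L hs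
  choose m hm using fun j => (h5 j).1
  have h6 := (L.card_dvd hm (TE φ).levi (Fix_le_G0_E6 (frob_iter_self hK hφ)) hs hgen).trans
    (Finset.prod_dvd_prod_of_dvd _ _ fun j _ => (h5 j).2)
  have h7 := card_H1_E6 hq hK hφ
  rw [← e, ← (TE φ).mt_H'] at h7
  rw [Fin.prod_univ_four, show (CE6.word 0).length = 1 from rfl, show (CE6.word 1).length = 1 from rfl,
    show (CE6.word 2).length = 2 from rfl, show (CE6.word 3).length = 2 from rfl, card_fix_one hq hK hφ,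
    card_fix_all hK hφ, h1, show (q - 1) * (q - 1) * (q ^ 2 - 1) * (q ^ 2 - 1) = (q - 1) ^ 4 * (q + 1) ^ 2 by
      rw [show q ^ 2 - 1 = (q + 1) * (q - 1) by simpa using Nat.sq_sub_sq q 1]; ring, ← h7] at h6
  exact Nat.dvd_of_mul_dvd_mul_right Nat.card_pos h6

end Cfsg.Agent.H40
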