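import Cfsg.Agent.H40.MulE6
import Cfsg.Agent.H40.MulM
import Cfsg.Agent.H39.UCE

/-!
The Schur multiplier of the twisted groups of type E₆.
-/

set_option autoImplicit false

namespace Cfsg.Agent.H40

open Cfsg.Lie Cfsg.Agent.H37
open scoped commutatorElement

/-- the derived group of the preimage of a perfect group in a central extension -/
theorem exists_stem {E A : Type*} [Group E] [Finite E] [Group A] (θ : E →* A) (hc : θ.ker ≤ Subgroup.center E)
    (G : Subgroup A) (hG : commutator G = ⊤) (hs : ∀ g ∈ G, ∃ e, θ e = g) :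
    ∃ (Γ : Subgroup E) (σ : Γ →* G), IsStemExtension σ ∧ (∀ x, (σ x : A) = θ x) ∧
      ∀ e, θ e ∈ G → ∀ n : ℕ, n.Coprime (Nat.card θ.ker) → e ^ n = 1 → e ∈ Γ := by
  let P := G.comap θ
  have hP : P.map θ = G := Subgroup.map_comap_eq_self fun g hg => hs g hg
  have h1 : (⁅P, P⁆ : Subgroup E).map θ = G := by
    rw [Subgroup.map_commutator, hP, ← G.map_subtype_commutator, hG, ← MonoidHom.range_eq_map, G.range_subtype]
  have h2 : ∀ e, θ e ∈ G → ∃ a ∈ (⁅P, P⁆ : Subgroup E), ∃ z ∈ θ.ker, e = a * z := fun e he => by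
    obtain ⟨a, ha, h⟩ : θ e ∈ (⁅P, P⁆ : Subgroup E).map θ := h1.symm ▸ he
    exact ⟨a, ha, a⁻¹ * e, by rw [MonoidHom.mem_ker, map_mul, map_inv, h, inv_mul_cancel], by simp⟩
  have h3 : commutator ↥(⁅P, P⁆ : Subgroup E) = ⊤ := by
    refine Subgroup.map_injective (Subgroup.subtype_injective _) ?_
    rw [Subgroup.map_subtype_commutator, ← MonoidHom.range_eq_map, Subgroup.range_subtype]
    have hle : (⁅P, P⁆ : Subgroup E) ≤ P := fun x hx => h1.le ⟨x, hx, rfl⟩
    refine le_antisymm (Subgroup.commutator_mono hle hle) (Subgroup.commutator_le.2 fun a ha b hb => ?_)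
    obtain ⟨a, ha', z, hz, rfl⟩ := h2 a ha
    obtain ⟨b, hb', w, hw, rfl⟩ := h2 b hb
    have e1 := Subgroup.mem_center_iff.1 (hc hz)
    have e2 := Subgroup.mem_center_iff.1 (hc hw)
    have : ⁅a * z, b * w⁆ = ⁅a, b⁆ := by
      rw [commutatorElement_def, commutatorElement_def, mul_inv_rev, mul_inv_rev, mul_assoc a z, ← e1, e2 b,
        mul_assoc a, mul_assoc a, mul_assoc _ z, mul_inv_cancel_left, mul_assoc a, ← mul_assoc _ w⁻¹,
        mul_assoc w, ← e2, mul_inv_cancel_right, mul_assoc, mul_assoc, mul_assoc]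
    exact this ▸ Subgroup.commutator_mem_commutator ha' hb'
  refine ⟨⁅P, P⁆, (θ.comp (Subgroup.subtype _)).codRestrict G fun x => h1.le ⟨x, x.2, rfl⟩,
    ⟨fun g => ?_, fun x hx => Subgroup.mem_center_iff.2 fun y => Subtype.ext
      (Subgroup.mem_center_iff.1 (hc (congrArg Subtype.val hx)) y), h3 ▸ le_top⟩, fun _ => rfl, fun e he n hn h => ?_⟩
  · obtain ⟨a, ha, h⟩ : (g : A) ∈ (⁅P, P⁆ : Subgroup E).map θ := h1.symm ▸ g.2
    exact ⟨⟨a, ha⟩, Subtype.ext h⟩
  · obtain ⟨a, ha, z, hz, h4⟩ := h2 e he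
    have h5 : e ^ Nat.card θ.ker ∈ (⁅P, P⁆ : Subgroup E) := by
      have h6 : z ^ Nat.card θ.ker = 1 := congrArg Subtype.val (pow_card_eq_one' (x := (⟨z, hz⟩ : θ.ker)))
      rw [h4, Commute.mul_pow (Subgroup.mem_center_iff.1 (hc hz) a), h6, mul_one]
      exact pow_mem ha _
    have h7 := Nat.gcd_eq_gcd_ab n (Nat.card θ.ker)
    rw [hn, Nat.cast_one] at h7
    rw [← zpow_one e, h7, zpow_add, zpow_mul, zpow_mul, zpow_natCast, zpow_natCast, h, one_zpow, one_mul]
    exact zpow_mem h5 _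

theorem ow_pow {D : ChevalleyDatum} {F G : Type*} [Field F] [Group G] (S : StRel D F G) (φ : F →+* F) {L : List ℕ}
    (hL : ∀ r ∈ L, r < D.nroots) (h : OL D L) (t : F) (n : ℕ) :
    gword S.x (ow φ L t) ^ n = gword S.x (ow φ L (n * t)) := by
  induction n with
  | zero =>
    rw [pow_zero, Nat.cast_zero, zero_mul]
    exact (mul_left_cancel (a := gword S.x (ow φ L 0)) (by rw [ow_add S φ hL h, add_zero, mul_one])).symm
  | succ n ih => rw [pow_succ, ih, ow_add S φ hL h, Nat.cast_succ, add_one_mul]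

variable {K : Type*} [Field K] {φ : K →+* K} [Fintype K] {q : ℕ} (hq : IsPrimePow q) (hK : Fintype.card K = q ^ 2)
  (hφ : ∀ t, φ t = t ^ q)
include hq hK hφ

theorem exists_stem_E6 (h3 : 3 ∣ q + 1) : ∃ (Γ : Subgroup (chevE6.SteinbergGroup K)) (σ : Γ →* (TE φ).mt.Fix),
    IsStemExtension σ ∧ σ.ker ≠ ⊥ := by
  have := H39.st_finite (F := K) isChev_E6
  let θ := (chevE6.group K).subtype.comp (H39.stProj isChev_E6 K)
  have hk : θ.ker = Subgroup.center _ := by rw [← H39.stProj_ker isChev_E6]; ext; simp [θ]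
  have hx : ∀ w : List (ℕ × K), (∀ r ∈ w.map Prod.fst, r < chevE6.nroots) →
      θ (gword (H39.st K isChev_E6).x w) = gword (SE K).x w := fun w hw => by
    rw [H39.map_gword]
    exact H39.gword_congr fun p hp => Units.ext (H39.stProj_x _ _ _ (hw _ (List.mem_map_of_mem hp)))
  obtain ⟨Γ, σ, hσ, h1, h2⟩ := exists_stem θ hk.le (TE φ).mt.Fix
    (perfect_E6 (frob_iter_self hK hφ) (exists_sq_ne_one hq hK le_rfl)) fun g hg =>
      (H39.stProj_surjective isChev_E6 ⟨g, matRel_grp isChev_E6 K ▸ hg.1⟩).imp fun _ h => congrArg Subtype.val h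
  obtain ⟨p, hp⟩ := CharP.exists K
  have hp' := (CharP.char_is_prime K p)
  have hpq : p ∣ q := hp'.dvd_of_dvd_pow (hK ▸ (CharP.cast_eq_zero_iff K p _).1 (Nat.cast_card_eq_zero K))
  have hc : p.Coprime (Nat.card θ.ker) := by
    rw [hk, H39.card_st_center isChev_E6 (H39.torus_injective_E6 _), H39.card_centT_E6]
    refine Nat.Coprime.coprime_dvd_right (Nat.gcd_dvd_left _ _) ((Nat.coprime_primes hp' Nat.prime_three).2 ?_)
    rintro rfl
    exact not_dvd_add_one hp' hpq h3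
  have h4 : ∀ {r s : ℕ}, Orb CE6 r [s] → ∀ t, gword (H39.st K isChev_E6).x (ow φ [r, s] t) ∈ Γ := fun h t => by
    have hL := fun s hs => (h.1 s hs).1
    refine h2 _ ?_ p hc ?_
    · rw [hx _ (by rw [ow_fst]; exact hL)]
      exact ((TE φ).ow_mem_Fix (TE_e φ) h).2 (frob_iter_self hK hφ t)
    · rw [ow_pow _ _ hL h.2.2.1, CharP.cast_eq_zero, ← Nat.cast_zero, ← ow_pow _ _ hL h.2.2.1, pow_zero]
  have h5 : ∀ {r s : ℕ}, Orb CE6 r [s] → Orb CE6 (chevE6.neg r) [chevE6.neg s] → ∀ t,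
      (H39.st K isChev_E6).h r t * (H39.st K isChev_E6).h s (φ t) ∈ Γ := fun {r s} h h' t => by
    have hL := fun s hs => (h.1 s hs).1
    have h6 : ∀ t, onw (H39.st K isChev_E6) φ [r, s] t ∈ Γ := fun t => by
      rw [onw_eq _ φ hL h.2.2.1 t]; exact mul_mem (mul_mem (h4 h _) (h4 h' _)) (h4 h _)
    have h7 := mul_mem (h6 t) (h6 (-1))
    have h8 := h.2.2.1.comm (H39.st K isChev_E6) (n_mem_pm _ (hL r (by simp)) (-1)) (n_mem_pm _ (hL s (by simp)) (φ t))
    simp only [onw, mul_one, map_neg, map_one] at h7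
    rwa [h_def, h_def, mul_assoc, ← mul_assoc _ ((H39.st K isChev_E6).n s _), h8.eq, mul_assoc, ← mul_assoc]
  obtain ⟨s, hs⟩ : ∃ s : Kˣ, orderOf s = 3 := by
    have := Fact.mk Nat.prime_three
    refine exists_prime_orderOf_dvd_card' 3 ?_
    rw [Nat.card_units, Nat.card_eq_fintype_card, hK, show q ^ 2 - 1 = (q + 1) * (q - 1) by
      simpa using Nat.sq_sub_sq q 1]
    exact h3.mul_right _
  have hs3 : s ^ 3 = 1 := hs ▸ pow_orderOf_eq_one s
  have hs' : s * Units.map (φ : K →* K) s = 1 := by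
    rw [show Units.map (φ : K →* K) s = s ^ q from Units.ext (hφ s), ← pow_succ', ← orderOf_dvd_iff_pow_eq_one, hs]
    exact h3
  have h9 := mul_mem (h5 (r := 42) (s := 37) (by decide +kernel) (by decide +kernel) (s ^ 2 : Kˣ))
    (h5 (r := 56) (s := 36) (by decide +kernel) (by decide +kernel) s)
  have h10 : ∀ (i : Fin chevE6.rank) (c : Kˣ), H39.torus (H39.st K isChev_E6) (Pi.mulSingle i c) =
      (H39.st K isChev_E6).h (chevE6.simple i) c := fun i c => by rw [H39.torus_mulSingle, H38.rg_h]; rfl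
  have h11 : ∀ r < chevE6.nroots, ∀ t, θ ((H39.st K isChev_E6).h r t) = (SE K).h r t := fun r hr t =>
    hx _ fun s hs => by obtain ⟨a, ha, rfl⟩ := List.mem_map.1 hs; exact H39.hWord_lt hr _ a ha
  refine ⟨Γ, σ, hσ, fun h => ?_⟩
  have h12 : (⟨_, h9⟩ : Γ) ∈ σ.ker := by
    refine Subtype.ext ((h1 _).trans ?_)
    have e := isH_eh φ ((s, s ^ 2), 1, 1)
    rw [(eh_eq_one φ).2 ⟨hs3, hs', rfl, rfl, rfl⟩] at e
    simp only [map_mul, h11 _ (show 42 < _ by decide), h11 _ (show 37 < _ by decide), h11 _ (show 56 < _ by decide),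
      h11 _ (show 36 < _ by decide)]
    refine (((isH_simple (SE K) (i := 2) (by decide) (s ^ 2)).mul (isH_simple (SE K) (i := 4) (by decide)
      (Units.map (φ : K →* K) (s ^ 2)))).mul ((isH_simple (SE K) (i := 0) (by decide) s).mul (isH_simple (SE K)
      (i := 5) (by decide) (Units.map (φ : K →* K) s)))).uniq (matRel_adj _ _) (e.congr fun i hi => ?_)
    obtain rfl | rfl | rfl | rfl | rfl | rfl := lt_six hi <;> simp [ec]
  rw [h, Subgroup.mem_bot, Subtype.ext_iff] at h12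
  have h13 := H39.torus_injective_E6 isChev_E6 (F := K) (a₁ := Pi.mulSingle ⟨2, by decide⟩ (s ^ 2) *
    Pi.mulSingle ⟨4, by decide⟩ (Units.map (φ : K →* K) (s ^ 2)) * (Pi.mulSingle ⟨0, by decide⟩ s *
    Pi.mulSingle ⟨5, by decide⟩ (Units.map (φ : K →* K) s))) (a₂ := 1) (by
      simp only [map_mul, h10, map_one]; exact h12)
  have h14 := congrFun h13 ⟨0, by decide⟩
  simp at h14
  simp [h14] at hs

theorem mult_E6 (h2 : q ≠ 2) : HasCyclicSchurMultiplier (TE φ).mt.Fix (Nat.gcd 3 (q + 1)) := by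
  have : Finite (TE φ).mt.Fix := inferInstance
  have := Fact.mk Nat.prime_three
  rcases (Nat.dvd_prime Nat.prime_three).1 (Nat.gcd_dvd_left 3 (q + 1)) with h | h
  · rw [h, H81.mult_trivial_iff]
    exact fun Γ _ _ σ hσ => Subgroup.card_eq_one.1 (Nat.dvd_one.1 (h ▸ card_ker_dvd_E6 hq hK hφ h2 hσ))
  have := H39.st_finite (F := K) isChev_E6
  obtain ⟨Γ, σ, hσ, h1⟩ := exists_stem_E6 hq hK hφ (h ▸ Nat.gcd_dvd_right 3 (q + 1))
  have h3 := ((Nat.dvd_prime Nat.prime_three).1 (h ▸ card_ker_dvd_E6 hq hK hφ h2 hσ)).resolve_left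
    fun e => h1 (Subgroup.card_eq_one.1 e)
  rw [h]
  refine H81.hasSchurMultiplier_of σ hσ (mulEquivOfPrimeCardEq (p := 3) h3 (by simp)) fun Δ _ _ τ hτ => ?_
  rcases (Nat.dvd_prime Nat.prime_three).1 (h ▸ card_ker_dvd_E6 hq hK hφ h2 hτ) with h4 | h4
  · have := (Nat.card_eq_one_iff_unique.1 h4).1
    exact ⟨1, fun x => ⟨1, Subsingleton.elim _ _⟩⟩
  · exact ⟨(mulEquivOfPrimeCardEq (G := Multiplicative (ZMod 3)) (p := 3) (by simp) h4).toMonoidHom,
      MulEquiv.surjective _⟩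

end Cfsg.Agent.H40
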