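import Cfsg.Agent.H40.MulM

/-!
Central extensions of twisted groups: classes of roots of Suzuki type.
-/

set_option autoImplicit false

namespace Cfsg.Agent.H40

theorem exists_hom_of_rel {X A G : Type*} [Group X] [Group A] [Group G] (π : X →* A) (R : Subgroup (A × G))
    (h1 : ∀ z, (1, z) ∈ R → z = 1) (h : ∀ x, ∃ z, (π x, z) ∈ R) : ∃ f : X →* G, ∀ x z, (π x, z) ∈ R → f x = z := by
  choose f hf using h
  have h2 : ∀ x z, (π x, z) ∈ R → f x = z := fun x z hz =>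
    mul_inv_eq_one.1 (h1 _ (by simpa using mul_mem (hf x) (inv_mem hz)))
  exact ⟨MonoidHom.mk' f fun a b => h2 _ _ (by simpa using mul_mem (hf a) (hf b)), h2⟩

namespace Tw.Lift

variable {A Φ I : Type*} [Group A] {T : Tw A Φ I} {E : Type*} [Group E] {π : E →* A} (L : T.Lift π) [Finite Φ]
  {j : I} {m : E} (hm : m ∈ L.Lh j ∧ π m = T.n j) (hL : ∀ y ∈ T.Up j, y ∈ T.XJ j ⊔ T.YJ j ⊔ T.H → y = 1)
include hm hL

theorem rk_local {x : A} (hx : x ∈ T.XJ j) (hf : x ∈ T.Fix) : ∃ u ∈ T.XJ j, u ∈ T.Fix ∧ ∃ k ∈ L.Lh j, π k ∈ T.N ∧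
    ∃ u' ∈ T.XJ j, u' ∈ T.Fix ∧ m * L.s x * m⁻¹ = L.s u * k * L.s u' := by
  obtain ⟨u, hu, huf, k, hk, -, hkH, u', hu', huf', e⟩ := T.rank_one hx hf
  obtain ⟨y, hy, -, u, hu₁, huf₁, rfl⟩ := T.U_decomp_fix j hu huf
  have h1 : T.n j ∈ T.XJ j ⊔ T.YJ j ⊔ T.H := Subgroup.mem_sup_left (hm.2 ▸ L.map_Lh hm.2 hm.1)
  have h2 : ∀ {x}, x ∈ T.XJ j → x ∈ T.XJ j ⊔ T.YJ j ⊔ T.H := fun h => Subgroup.mem_sup_left (Subgroup.mem_sup_left h)
  have h3 : k ∈ T.XJ j ⊔ T.YJ j ⊔ T.H := hkH.elim Subgroup.mem_sup_right fun h => by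
    simpa using mul_mem (Subgroup.mem_sup_right h) (inv_mem h1)
  obtain rfl := hL y hy (by
    have := mul_mem (mul_mem (mul_mem h1 (h2 hx)) (inv_mem h1)) (inv_mem (mul_mem (mul_mem (h2 hu₁) h3) (h2 hu')))
    rw [e] at this; simpa [mul_assoc] using this)
  refine ⟨u, hu₁, huf₁, (L.s u)⁻¹ * (m * L.s x * m⁻¹) * (L.s u')⁻¹, mul_mem (mul_mem (inv_mem (L.s_mem_Lh
    (Or.inl hu₁) huf₁)) (mul_mem (mul_mem hm.1 (L.s_mem_Lh (Or.inl hx) hf)) (inv_mem hm.1)))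
    (inv_mem (L.s_mem_Lh (Or.inl hu') huf')), ?_, u', hu', huf', by group⟩
  convert hk using 1
  simp only [map_mul, map_inv, L.map _ (T.XJ_le j hu₁) huf₁, L.map _ (T.XJ_le j hu') huf',
    L.map _ (T.XJ_le j hx) hf, hm.2, e]
  group

omit hm hL [Finite Φ] in
theorem s_shift {k : E} (hk : π k ∈ T.H) {u u' : A} (hu : u ∈ T.XJ j) (huf : u ∈ T.Fix) (hu' : u' ∈ T.XJ j)
    (huf' : u' ∈ T.Fix) : ∃ v ∈ T.XJ j, v ∈ T.Fix ∧ L.s u * k * L.s u' = k * L.s v := by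
  have h1 : π k⁻¹ * u * (π k⁻¹)⁻¹ ∈ T.XJ j := T.H_conj_XS (by rw [map_inv]; exact inv_mem hk) hu
  have h2 := mul_mem (mul_mem (L.mem k⁻¹) huf) (inv_mem (L.mem k⁻¹))
  exact ⟨_, mul_mem h1 hu', mul_mem h2 huf', by
    rw [L.mul _ (T.XJ_le j h1) h2 _ (T.XJ_le j hu') huf', ← L.conj _ _ huf]; group⟩

theorem bruhat_local {e : E} (he : e ∈ L.Lh j) : ∃ u ∈ T.XJ j, u ∈ T.Fix ∧ ∃ k ∈ L.Lh j, π k ∈ T.N ∧
    ∃ u' ∈ T.XJ j, u' ∈ T.Fix ∧ e = L.s u * k * L.s u' := by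
  have hN : π m ∈ T.N := hm.2 ▸ T.n_mem j
  let B : E → Prop := fun e => ∃ u ∈ T.XJ j, u ∈ T.Fix ∧ ∃ k ∈ L.Lh j, π k ∈ T.N ∧
    ∃ u' ∈ T.XJ j, u' ∈ T.Fix ∧ e = L.s u * k * L.s u'
  have h1 : ∀ x ∈ T.XJ j, x ∈ T.Fix → ∀ e, B e → B (L.s x * e) := by
    rintro x hx hf _ ⟨u, hu, huf, k, hk, hkN, u', hu', huf', rfl⟩
    exact ⟨_, mul_mem hx hu, mul_mem hf huf, k, hk, hkN, u', hu', huf', by
      rw [L.mul _ (T.XJ_le j hx) hf _ (T.XJ_le j hu) huf]; group⟩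
  have h2 : ∀ e, B e → B (m * e) := by
    rintro _ ⟨u, hu, huf, k, hk, hkN, u', hu', huf', rfl⟩
    rcases L.Lh_N hm.2 hk hkN with h | h
    · obtain ⟨v, hv, hvf, e⟩ := L.s_shift h hu huf hu' huf'
      exact ⟨1, one_mem _, one_mem _, m * k, mul_mem hm.1 hk, by rw [map_mul]; exact mul_mem hN hkN, v, hv, hvf,
        by rw [e, L.s_one]; group⟩
    · obtain ⟨u₁, h3, h4, k₁, h5, h6, u₂, h7, h8, e₁⟩ := L.rk_local hm hL hu huf
      obtain ⟨v, hv, hvf, e⟩ := L.s_shift (k := m * k) (by simpa [hm.2, mul_assoc] using T.H_conj (T.n_mem j) h)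
        h7 h8 hu' huf'
      refine ⟨u₁, h3, h4, k₁ * (m * k), mul_mem h5 (mul_mem hm.1 hk),
        by rw [map_mul, map_mul]; exact mul_mem h6 (mul_mem hN hkN), v, hv, hvf, ?_⟩
      calc _ = m * L.s u * m⁻¹ * (m * k) * L.s u' := by group
        _ = L.s u₁ * k₁ * (L.s u₂ * (m * k) * L.s u') := by rw [e₁]; group
        _ = _ := by rw [e]; group
  have h3 : ∀ e, B e → B (m⁻¹ * e) := fun e he => by
    obtain ⟨u, hu, huf, k, hk, hkN, u', hu', huf', e₁⟩ := h2 e he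
    have h4 : π (m * m)⁻¹ ∈ T.H := by rw [map_inv, map_mul, hm.2]; exact inv_mem (T.n_sq_mem j)
    exact ⟨_, T.H_conj_XS h4 hu, mul_mem (mul_mem (L.mem _) huf) (inv_mem (L.mem _)), (m * m)⁻¹ * k,
      mul_mem (inv_mem (mul_mem hm.1 hm.1)) hk, by rw [map_mul]; exact mul_mem (T.H_le h4) hkN, u', hu', huf',
      by rw [← L.conj _ _ huf, ← inv_mul_eq_iff_eq_mul.2 e₁.symm]; group⟩
  have h4 : ∀ x, (x ∈ T.XJ j ∨ x ∈ T.YJ j) → x ∈ T.Fix → ∀ e, B e → B (L.s x * e) ∧ B ((L.s x)⁻¹ * e) := by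
    rintro x (hx | hx) hf e he
    · exact ⟨h1 x hx hf e he, L.s_inv (T.XJ_le j hx) hf ▸ h1 _ (inv_mem hx) (inv_mem hf) e he⟩
    · obtain ⟨y, hy, hyf, -, e₁⟩ := L.s_YJ hm.2 hx hf
      have h5 := h2 _ (h1 _ (inv_mem hy) (inv_mem hyf) _ (h3 e he))
      rw [L.s_inv (T.XJ_le j hy) hyf] at h5
      rw [e₁]
      exact ⟨by simpa [mul_assoc] using h2 _ (h1 _ hy hyf _ (h3 e he)), by simpa [mul_assoc] using h5⟩
  induction he using Subgroup.closure_induction_left with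
  | one => exact ⟨1, one_mem _, one_mem _, 1, one_mem _, by simp, 1, one_mem _, one_mem _, by simp [L.s_one]⟩
  | mul_left g hg y _ ih => obtain ⟨x, hx, rfl⟩ := hg; exact (h4 x hx.1 hx.2 y ih).1
  | inv_mul_cancel g hg y _ ih => obtain ⟨x, hx, rfl⟩ := hg; exact (h4 x hx.1 hx.2 y ih).2

open H13 in
/-- a class of Suzuki type -/
theorem sz [Finite E] {G F : Type*} [Group G] [Field F] [Tits F] [Finite F] (M : Model G F) {n : ℕ} (Q : Par F n)
    (R : Subgroup (A × G)) (h1 : ∀ z, (1, z) ∈ R → z = 1)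
    (hx : ∀ x ∈ T.XJ j, x ∈ T.Fix → ∃ a b, (x, M.u a b) ∈ R ∧ (a = 0 → b = 0 → x = 1))
    (hx' : ∀ a b, ∃ x ∈ T.XJ j, x ∈ T.Fix ∧ (x, M.u a b) ∈ R) (hn : (T.n j, M.w) ∈ R)
    (h2 : ¬ 2 ∣ Nat.card π.ker) (h3 : ¬ 2 ∣ Nat.card ↥(T.H ⊓ T.Fix)) : Nat.card (L.Th j) ∣ Nat.card F - 1 := by
  have := M.finite
  have ps := fun x (hx : x ∈ T.XJ j) hf => L.map x (T.XJ_le j hx) hf
  obtain ⟨f, hf⟩ := exists_hom_of_rel (π.comp (L.Lh j).subtype) R h1 fun e => by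
    refine (Subgroup.closure_le ((R.map (MonoidHom.fst A G)).comap π)).2 ?_ e.2 |>.elim fun z h =>
      ⟨z.2, by rw [show (π.comp (L.Lh j).subtype) e = z.1 from h.2.symm]; exact h.1⟩
    rintro _ ⟨x, ⟨h | h, hf⟩, rfl⟩
    · obtain ⟨a, b, h4, -⟩ := hx x h hf
      exact ⟨_, h4, (ps x h hf).symm⟩
    · obtain ⟨y, hy, hyf, -, e⟩ := L.s_YJ hm.2 h hf
      obtain ⟨a, b, h4, -⟩ := hx y hy hyf
      exact ⟨_, mul_mem (mul_mem hn h4) (inv_mem hn), by simp [e, hm.2, ps y hy hyf]⟩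
  let σ : ∀ x ∈ T.XJ j, x ∈ T.Fix → L.Lh j := fun x hx hf => ⟨L.s x, L.s_mem_Lh (Or.inl hx) hf⟩
  let μ : L.Lh j := ⟨m, hm.1⟩
  have fm : f μ = M.w := hf _ _ (hm.2.symm ▸ hn :)
  have fs : ∀ x h h', f (σ x h h') ∈ M.U ∧ (f (σ x h h') = 1 → x = 1) := fun x h h' => by
    obtain ⟨a, b, h4, h5⟩ := hx x h h'
    rw [hf (σ x h h') _ ((ps x h h').symm ▸ h4 :)]
    exact ⟨M.u_mem_U _ _, fun e => h5 (M.u_eq_one.1 e).1 (M.u_eq_one.1 e).2⟩
  have fu : ∀ a b, ∃ x h h', f (σ x h h') = M.u a b := fun a b => by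
    obtain ⟨x, h, h', h4⟩ := hx' a b
    exact ⟨x, h, h', hf _ _ ((ps x h h').symm ▸ h4 :)⟩
  have cj : ∀ k : L.Lh j, π k ∈ T.H → ∀ x h h', ∃ y g g', k * σ x h h' * k⁻¹ = σ y g g' ∧ y = π k * x * (π k)⁻¹ :=
    fun k hk x h h' => ⟨_, T.H_conj_XS hk h, mul_mem (mul_mem (L.mem k) h') (inv_mem (L.mem k)),
      Subtype.ext (L.conj _ _ h'), rfl⟩
  have fB : ∀ k : L.Lh j, π k ∈ T.H → f k ∈ M.B := fun k hk => by
    obtain ⟨x, h, h', e⟩ := fu 0 1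
    obtain ⟨y, g, g', e', -⟩ := cj k⁻¹ (by simpa using hk) x h h'
    have h4 := M.U_le_B (fs y g g').1
    rw [← e', inv_inv, map_mul, map_mul, e, map_inv, Model.mem_B, mul_smul, mul_smul, inv_smul_eq_iff] at h4
    exact M.U_fix (M.u_mem_U 0 1) (by simp [M.u_eq_one]) h4
  have fH : ∀ k : L.Lh j, π k ∈ T.H → f k ∈ M.H := fun k hk => M.mem_H_iff_B.2 ⟨fB k hk, by
    simpa [fm] using fB (μ * k * μ⁻¹) (by simpa [μ, hm.2] using T.H_conj (T.n_mem j) hk)⟩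
  have kH : ∀ e ∈ f.ker, π e ∈ T.H := fun e he => by
    obtain ⟨u, hu, huf, k, hk, hkN, u', hu', huf', e₁⟩ := L.bruhat_local hm hL e.2
    rcases L.Lh_N hm.2 hk hkN with h | h
    · obtain ⟨v, hv, hvf, e₂⟩ := L.s_shift h hu huf hu' huf'
      have h4 : e = ⟨k, hk⟩ * σ v hv hvf := Subtype.ext (e₁.trans e₂)
      obtain ⟨s, hs⟩ := M.mem_H.1 (fH ⟨k, hk⟩ h)
      obtain ⟨a, b, hab⟩ := (fs v hv hvf).1
      rw [MonoidHom.mem_ker, h4, map_mul, hs, hab, mul_eq_one_comm, ← mul_one 1] at he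
      nth_rw 1 [← M.u_zero] at he
      obtain ⟨rfl, rfl, -⟩ := M.u_mul_h_inj (he.trans (by rw [M.h_one]))
      rw [e₁, e₂, (fs v hv hvf).2 (hab.trans M.u_zero), L.s_one, mul_one]
      exact h
    · have h4 : e = σ u hu huf * ⟨k, hk⟩ * σ u' hu' huf' := Subtype.ext e₁
      have h5 := M.H_le_B (fH (⟨k, hk⟩ * μ) (by simpa [μ, hm.2] using h))
      rw [MonoidHom.mem_ker, h4, map_mul, map_mul, mul_eq_one_comm, ← mul_assoc, mul_eq_one_iff_inv_eq] at he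
      rw [map_mul, fm, ← he] at h5
      exact absurd ((M.B.mul_mem_cancel_left (inv_mem (M.U_le_B (mul_mem (fs _ hu' huf').1 (fs _ hu huf).1)))).1 h5)
        M.w_not_mem_B
  have kc : ∀ e ∈ f.ker, ∀ x h h', e * σ x h h' * e⁻¹ = σ x h h' := fun e he x h h' => by
    obtain ⟨y, g, g', e₁, -⟩ := cj e (kH e he) x h h'
    have h4 : σ (y * x⁻¹) (mul_mem g (inv_mem h)) (mul_mem g' (inv_mem h')) = σ y g g' * (σ x h h')⁻¹ :=
      Subtype.ext ((L.mul _ (T.XJ_le j g) g' _ (T.XJ_le j (inv_mem h)) (inv_mem h')).trans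
        (congrArg _ (L.s_inv (T.XJ_le j h) h')))
    obtain rfl := mul_inv_eq_one.1 ((fs _ (mul_mem g (inv_mem h)) (mul_mem g' (inv_mem h'))).2
      (by rw [h4, ← e₁]; simp [MonoidHom.mem_ker.1 he]))
    exact e₁
  have gen : ∀ K : Subgroup (L.Lh j), (∀ x h h', σ x h h' ∈ K ∧ μ * σ x h h' * μ⁻¹ ∈ K) → K = ⊤ := fun K hK => by
    refine eq_top_iff.2 fun e _ => ?_
    obtain ⟨y, hy, e₁⟩ : e.1 ∈ K.map (L.Lh j).subtype := (Subgroup.closure_le _).2 (by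
      rintro _ ⟨x, ⟨h | h, hf⟩, rfl⟩
      · exact ⟨_, (hK x h hf).1, rfl⟩
      · obtain ⟨y, hy, hyf, -, e⟩ := L.s_YJ hm.2 h hf
        exact ⟨_, (hK y hy hyf).2, e.symm⟩) e.2
    exact Subtype.ext e₁ ▸ hy
  have hc : f.ker ≤ Subgroup.center _ := fun e he => Subgroup.mem_center_iff.2 fun g =>
    (gen (Subgroup.centralizer {e}) fun x h h' => ⟨Subgroup.mem_centralizer_singleton_iff.2
      (mul_inv_eq_iff_eq_mul.1 (kc e he x h h')).symm, Subgroup.mem_centralizer_singleton_iff.2 (by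
        have := kc (μ⁻¹ * e * μ) (by simp [MonoidHom.mem_ker.1 he]) x h h'
        conv_lhs => rw [← this]
        group)⟩).ge (Subgroup.mem_top g) e rfl |>.symm
  have hs : Function.Surjective f := MonoidHom.range_eq_top.1 (M.eq_top_of_U_le Q.hy _
    (by rintro _ ⟨a, b, rfl⟩; obtain ⟨x, h, h', e⟩ := fu a b; exact ⟨_, e⟩) fun h => M.w_not_mem_B (h ⟨_, fm⟩))
  have ho : ¬ 2 ∣ Nat.card f.ker := fun h => by
    obtain ⟨z, hz⟩ := exists_prime_orderOf_dvd_card' 2 h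
    have h4 : (z.1.1 : E) ^ 2 = 1 := congrArg (fun a : f.ker => (a.1.1 : E)) (hz ▸ pow_orderOf_eq_one z)
    have h5 : π z.1.1 = 1 := by
      by_contra h5
      refine h3 (orderOf_eq_prime (p := 2) (x := (⟨_, kH _ z.2, L.mem _⟩ : ↥(T.H ⊓ T.Fix))) (Subtype.ext ?_)
        (fun e => h5 (congrArg Subtype.val e)) ▸ orderOf_dvd_natCard _)
      exact (map_pow π _ 2).symm.trans (by rw [h4, map_one]; rfl)
    refine h2 (orderOf_eq_prime (x := (⟨_, h5⟩ : π.ker)) (Subtype.ext h4) (fun e => ?_) ▸ orderOf_dvd_natCard _)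
    have e' : (z.1.1 : E) = 1 := congrArg Subtype.val e
    rw [show z = 1 from Subtype.ext (Subtype.ext e'), orderOf_one] at hz
    exact absurd hz (by decide)
  have hp : commutator (L.Lh j) = ⊤ := by
    have h4 : ∀ x h h', σ x h h' ∈ commutator (L.Lh j) := fun x h h' => by
      obtain ⟨c, hc', e⟩ : f (σ x h h') ∈ (commutator (L.Lh j)).map f := by
        rw [map_commutator_eq, MonoidHom.range_eq_top.2 hs, ← commutator_def, M.commutator_eq_top Q.hy]; trivial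
      have h5 : c⁻¹ * σ x h h' ∈ f.ker := by simp [e]
      have h6 : σ x h h' ^ Nat.card f.ker ∈ commutator (L.Lh j) := by
        rw [← mul_inv_cancel_left c (σ x h h'), Commute.mul_pow (Subgroup.mem_center_iff.1 (hc h5) c),
          show (c⁻¹ * σ x h h') ^ Nat.card f.ker = 1 from congrArg Subtype.val (pow_card_eq_one' (x := (⟨_, h5⟩ : f.ker))),
          mul_one]
        exact pow_mem hc' _
      have h7 : ∀ k : ℕ, σ x h h' ^ k = σ (x ^ k) (pow_mem h k) (pow_mem h' k) := fun k => Subtype.ext (by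
        induction k with
        | zero => simp [σ, L.s_one]
        | succ k ih =>
          rw [pow_succ, Subgroup.coe_mul, ih]
          simp only [σ, pow_succ, L.mul _ (T.XJ_le j (pow_mem h k)) (pow_mem h' k) _ (T.XJ_le j h) h'])
      have h8 : σ x h h' ^ 4 = 1 := by
        obtain ⟨a, b, e⟩ := (fs x h h').1
        have := (fs _ (pow_mem h 4) (pow_mem h' 4)).2 (by rw [← h7 4, map_pow, e, M.u_pow_four])
        exact (h7 4).trans (Subtype.ext (by simp [σ, this, L.s_one]))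
      have h9 := Nat.gcd_eq_gcd_ab (2 ^ 2) (Nat.card f.ker)
      rw [((Nat.prime_two.coprime_iff_not_dvd).2 ho).pow_left 2, Nat.cast_one] at h9
      rw [← zpow_one (σ x h h'), h9, zpow_add, zpow_mul, zpow_mul, zpow_natCast, zpow_natCast,
        show σ x h h' ^ 2 ^ 2 = 1 from h8, one_zpow, one_mul]
      exact zpow_mem h6 _
    exact gen _ fun x h h' => ⟨h4 x h h', Subgroup.Normal.conj_mem inferInstance _ (h4 x h h') _⟩
  have hk : f.ker = ⊥ := by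
    rw [← Subgroup.card_eq_one]
    by_contra hne
    have : Fact (Nat.card f.ker).minFac.Prime := ⟨Nat.minFac_prime hne⟩
    have hd := Nat.minFac_dvd (Nat.card f.ker)
    generalize (Nat.card f.ker).minFac = p at *
    obtain ⟨P⟩ : Nonempty (Sylow p G) := inferInstance
    exact S2111.reduce hs hc P P.not_dvd_index (by
      rw [S2111.cyc hc (M.isCyclic_of_odd_prime Q (by rintro rfl; exact ho hd) P.isPGroup'), inf_bot_eq])
      (hp ▸ le_top) hd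
  rw [← M.card_H]
  exact Subgroup.card_dvd_of_injective ((f.comp (Subgroup.inclusion inf_le_left)).codRestrict M.H
    fun k => fH _ k.2.2) fun a b h => Subgroup.inclusion_injective _
      ((MonoidHom.ker_eq_bot_iff f).1 hk (congrArg Subtype.val h))

end Tw.Lift

end Cfsg.Agent.H40
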