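import Cfsg.Agent.H40.MulF4a
import Cfsg.Agent.H40.MulSz

/-!
The Schur multiplier of the large Ree groups.
-/

set_option autoImplicit false

namespace Cfsg.Agent.H40

open Cfsg.Lie Cfsg.Agent.H37 PE
open scoped commutatorElement

variable {K : Type*} [Field K] {e : ℕ} (θ : Th K 2 e)

theorem torF4 (v : ℤ × ℤ × ℤ × ℤ) (c : Kˣ) : ∃ h ∈ ((TF θ).filt levF4 θ.cast_p).H, ∀ k < 12,
    ((TF θ).filt levF4 θ.cast_p).χ k h = (c : K) ^ (exF v k).1 * θ.ψ c ^ (exF v k).2 := by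
  let d := Units.map (θ.ψ : K →* K) c
  have h1 := isH_fh θ (Units.map (θ.ψ : K →* K) (c ^ v.1 * d ^ v.2.1), Units.map (θ.ψ : K →* K) (c ^ v.2.2.1 * d ^ v.2.2.2))
  refine ⟨_, ⟨h1.1, fh_mem_Fix θ _⟩, fun k hk => ?_⟩
  rw [(TF θ).filt_χ _ _ hk (h1.congr (c' := (fun i => c ^ [v.1, v.2.2.1, 2 * v.2.2.2, 2 * v.2.1].getD i 0) *
    fun i => d ^ [v.2.1, v.2.2.2, v.2.2.1, v.1].getD i 0) fun i hi => ?_), chi_mul, chi_zpow, chi_zpow]
  · simp [exF, d]
  · ext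
    obtain rfl | rfl | rfl | rfl := lt_four hi <;> simp [fc, d, θ.φψ, θ.ψψ, zpow_mul, zpow_ofNat]
    exacts [Or.inl (by rw [θ.ψ_def]), Or.inl (by rw [θ.ψ_def]), mul_comm _ _, mul_comm _ _]

theorem exF_ne {c : Kˣ} (hc : c ≠ 1) {m n : ℤ} (h : m ^ 2 - 2 * n ^ 2 ∣ 8) : (c : K) ^ m * θ.ψ c ^ n ≠ 1 := by
  intro h1
  have := θ.char
  have h0 := (map_ne_zero θ.ψ).2 c.ne_zero
  have h2 := congrArg θ.ψ h1
  rw [map_mul, map_zpow₀, map_zpow₀, θ.ψψ, map_one] at h2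
  have h3 : (c : K) ^ (m ^ 2 - 2 * n ^ 2) = 1 := by
    have h4 : ((c : K) ^ m * θ.ψ c ^ n) ^ m = (θ.ψ c ^ m * (c ^ 2) ^ n) ^ n := by rw [h1, h2, one_zpow, one_zpow]
    rw [mul_zpow, mul_zpow, ← zpow_mul, ← zpow_mul, ← zpow_mul, ← zpow_mul, mul_comm n m, mul_comm,
      mul_right_inj' (zpow_ne_zero _ h0), ← zpow_natCast, ← zpow_mul] at h4
    rw [zpow_sub₀ c.ne_zero, sq, h4, sq]
    exact div_self (zpow_ne_zero _ c.ne_zero)
  obtain ⟨a, ha⟩ := h
  have h4 : (c : K) ^ 2 ^ 3 = 1 ^ 2 ^ 3 := by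
    rw [← zpow_natCast, show ((2 ^ 3 : ℕ) : ℤ) = 8 from rfl, ha, zpow_mul, h3, one_zpow, one_pow]
  exact hc (Units.ext (iterateFrobenius_inj K 2 3 h4))

theorem surjF4 {k : ℕ} (hk : k < 12) (c : K) (hc : c ≠ 0) :
    ∃ h ∈ ((TF θ).filt levF4 θ.cast_p).H, ((TF θ).filt levF4 θ.cast_p).χ k h = c := by
  obtain ⟨h, hh, e⟩ := torF4 θ (scF k) (Units.mk0 c hc)
  exact ⟨h, hh, by simp [e k hk, (show ∀ k < 12, exF (scF k) k = (1, 0) by decide +kernel) k hk]⟩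

theorem derF4 {t : K} (h0 : t ≠ 0) (h1 : t ≠ 1) : ((TF θ).filt levF4 θ.cast_p).V 2 ≤
    ⁅((TF θ).filt levF4 θ.cast_p).V 0, ((TF θ).filt levF4 θ.cast_p).V 0⁆ := by
  have ht : θ.φ t + t ≠ 0 := fun h => by
    have h2 : θ.φ t = t := by linear_combination h - t * two_eq_zero θ
    have h3 := θ.φφ t
    rw [h2, h2] at h3
    exact (eq_zero_or_one_of_sq_eq_self h3).elim h0 h1
  have hw := fun L h v => (TF θ).w1_mem' levF4 θ.cast_p (fixF L h) v
  refine Filt.le_of_cover fun k hk hi => Filt.cover_der hk (surjF4 θ hk) ?_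
  by_cases h : k ∈ [2, 4, 6, 7, 8, 9, 10, 11]
  · exact ((TF θ).der_of_cc levF4 θ.cast_p hk [] (hw _ (by clear hk hi; revert k; decide) _)
      (hw _ (by clear hk hi; revert k; decide) _)
      (drF_ok k h)).imp fun _ h => ⟨h.1, h.2.1, h.2.2.trans_ne one_ne_zero⟩
  obtain rfl | rfl : k = 3 ∨ k = 5 := by change k < 12 at hk; simp at h; omega
  · exact ((TF θ).der_of_cc levF4 θ.cast_p hk (e := add (var 0) (var 1)) [θ.φ t, t, θ.φ t * t + 0, θ.ψ 0]
      (a := w4 (var 0) (var 1) (var 2) (var 3)) ((TF θ).word_mem_filt _ _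
        (show ∀ s ∈ [27, 25, 28, 30], s ∈ lk OsF4 0 by decide) (su_mem_Fix θ t 0)) (hw [27, 25, 28] (by decide) _)
      (c := [(28, add (var 0) (var 1)), (30, add (pow (var 0) 2) (var 1))]) (by decide +kernel)).imp
        fun _ h => ⟨h.1, h.2.1, h.2.2.trans_ne ht⟩
  · have h2 := mul_mem (Subgroup.commutator_mem_commutator ((TF θ).word_mem_filt levF4 θ.cast_p
      (w := evW [θ.φ t, t] [(33, var 0), (24, var 1)]) (show ∀ s ∈ [33, 24], s ∈ lk OsF4 0 by decide)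
      (pr_mem_Fix θ t)) (hw [28, 30] (by decide) [θ.φ t, t])) (Subgroup.commutator_mem_commutator
      (hw [33, 24] (by decide) [θ.φ t, t]) ((TF θ).word_mem_filt levF4 θ.cast_p
      (w := evW [θ.φ t, t] (w4 zero zero (var 1) (pow (var 0) 2))) (show ∀ s ∈ [27, 25, 28, 30], s ∈ lk OsF4 0 by decide)
      ((g4_mem_Fix θ (a := 0) (b := 0) (c := t) (d := θ.φ t ^ 2)).2 (by simp [← θ.ψ_def, θ.φψ]))))
    rw [comm_of_cc _ θ.cast_p cF1_ok, comm_of_cc _ θ.cast_p cF2_ok, ← gword_append, ← evW_append,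
      gword_eq_of_cc _ θ.cast_p cF3_ok] at h2
    have h3 : ∀ s ∈ cF3.map Prod.fst, s ∈ lk OsF4 5 := by decide
    exact ⟨_, h2, (TF θ).word_mem_filt _ _ (by rwa [evW_fst]) (Subgroup.commutator_le.2 (fun a ha b hb =>
      ((TF θ).filt levF4 θ.cast_p).succ_le 0 (((TF θ).filt levF4 θ.cast_p).comm 0 a ha b hb)) h2).2,
      ((TF θ).κ_evW _ _ hk h3 _ (e := add (var 0) (var 1)) (by decide)).trans_ne ht⟩

theorem ppart_F4 [Fintype K] (hK : 4 < Fintype.card K) {E : Type*} [Group E] {π : E →* GL chevF4.Idx K}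
    (hc : π.ker ≤ Subgroup.center E) (hs : ∀ g ∈ (TF θ).mt.Fix, ∃ e, π e = g) :
    π.ker ⊓ ⁅((TF θ).mt.U ⊓ (TF θ).mt.Fix).comap π, ((TF θ).mt.U ⊓ (TF θ).mt.Fix).comap π⁆ = ⊥ := by
  obtain ⟨c, hc0⟩ := exists_pow_ne_one (K := K) one_ne_zero (by omega)
  rw [pow_one] at hc0
  have hd := derF4 θ c.ne_zero fun h => hc0 (Units.ext h)
  have hC := (TF θ).cov levF4 θ.cast_p hc hs
  obtain ⟨a0, m0, e0⟩ := torF4 θ (1, 1, 2, 2) c
  obtain ⟨a1, m1, e1⟩ := torF4 θ (2, 1, 3, 2) c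
  have t0 : ∀ k < 12, k ≠ 0 → (exF (1, 1, 2, 2) k).1 ^ 2 - 2 * (exF (1, 1, 2, 2) k).2 ^ 2 ∣ 8 := by decide +kernel
  have t1 : ∀ k < 12, k ≠ 1 → k ≠ 3 → (exF (2, 1, 3, 2) k).1 ^ 2 - 2 * (exF (2, 1, 3, 2) k).2 ^ 2 ∣ 8 := by
    decide +kernel
  rw [← (TF θ).filt_V0 levF4 θ.cast_p]
  refine Filt.final_of_torus hC (show 0 < 12 by decide) (fun k hk => ?_) fun k hk M hM i hi hl => ?_
  · exact (surjF4 θ hk c c.ne_zero).imp fun _ h => ⟨h.1, h.2.trans_ne fun h => hc0 (Units.ext h)⟩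
  rcases le_or_gt 2 i with h2 | h2
  · exact (hM.cent_der hC (hM.cent_right hC 0)).mono le_rfl ((Filt.anti _ h2).trans hd) le_rfl
  rcases hi.lt_or_eq with hi | rfl
  swap
  · exact Filt.c_scal hC hM (Filt.comm_succ i) hl (hM.cent_right hC i) hk hk
      (fun a ha => (surjF4 θ hk a ha).imp fun _ h => ⟨h.1, h.2, h.2⟩) (exists_scal hK)
  have h3 := fun h (hh : h ∈ _) => Filt.c_tsep hC hM (Filt.comm_succ i) hl (hM.cent_right hC i) (hi.trans hk) hk hh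
  interval_cases i
  · exact h3 a0 m0 (Or.inl ⟨by simp [e0, show exF (1, 1, 2, 2) 0 = (0, 0) by decide +kernel],
      e0 k hk ▸ exF_ne θ hc0 (t0 k hk hi.ne')⟩)
  by_cases h4 : k = 3
  · subst h4
    have g : ((TF θ).filt levF4 θ.cast_p).Good π (11 + 1) ⊥ := Filt.good_last
    exact Filt.c_gen hC hM (Filt.comm_succ 1) hl (hM.cent_right hC 1) (hi.trans hk) hk ((TF θ).cover_w1 _ _
      (by decide) (surjF4 θ (by decide)) (A := [27, 25, 28, 30]) (L := [27, 25, 28]) (by decide +kernel))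
      ((TF θ).cover_w1 _ _ (by decide) (surjF4 θ (by decide)) (A := [28, 30]) (L := [28, 30]) (by decide +kernel))
      (((TF θ).cent_conj_bot hs ((TF θ).cent_conj_bot hs ((TF θ).cent_conj_bot hs ((g.cent_der hC
        (g.cent_right hC 0)).mono le_rfl (((TF θ).XL_le _ _ (A := [29, 41, 44, 47]) (by decide)).trans hd)
        ((TF θ).XL_le _ _ (A := [44, 47]) (by decide))) 0 (A' := [35, 31, 40, 46]) (B' := [40, 46]) (by decide +kernel)
        (by decide +kernel)) 1 (A' := [34, 26, 36, 42]) (B' := [36, 42]) (by decide +kernel) (by decide +kernel)) 0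
        (by decide +kernel) (by decide +kernel)).mono bot_le le_rfl le_rfl)
  · exact h3 a1 m1 (Or.inl ⟨by simp [e1, show exF (2, 1, 3, 2) 1 = (0, 0) by decide +kernel],
      e1 k hk ▸ exF_ne θ hc0 (t1 k hk hi.ne' h4)⟩)

/-- four root vectors spanning a natural module for the class of type `B₂` -/
def ixF (i : Fin 4) : chevF4.Idx := Sum.inr ((![⟨37, by decide⟩, ⟨35, by decide⟩, ⟨34, by decide⟩, ⟨33, by decide⟩] :
  Fin 4 → Fin chevF4.nroots) i)

/-- the inclusion of their span -/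
def inF (K : Type*) [Field K] : Matrix chevF4.Idx (Fin 4) K := (1 : Matrix _ _ K).submatrix id ixF

theorem inF_cancel {A B : Matrix (Fin 4) (Fin 4) K} (h : inF K * A = inF K * B) : A = B := by
  have h1 : (inF K).transpose * inF K = 1 := by
    rw [inF, Matrix.transpose_submatrix, Matrix.transpose_one, ← Matrix.submatrix_mul _ _ _ id _ Function.bijective_id,
      Matrix.one_mul, Matrix.submatrix_one _ (by decide +kernel)]
  simpa [← Matrix.mul_assoc, h1] using congrArg ((inF K).transpose * ·) h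

/-- the action on the span of the four root vectors -/
def relF {G : Type*} [Group G] (ρ : G →* Matrix (Fin 4) (Fin 4) K) : Subgroup (GL chevF4.Idx K × G) where
  carrier := {a | (a.1 : Matrix chevF4.Idx chevF4.Idx K) * inF K = inF K * ρ a.2}
  one_mem' := by simp
  mul_mem' := fun {a b} ha hb => by
    simp only [Set.mem_ofPred_eq, Prod.fst_mul, Prod.snd_mul, Units.val_mul, map_mul] at ha hb ⊢
    rw [Matrix.mul_assoc, hb, ← Matrix.mul_assoc, ha, Matrix.mul_assoc]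
  inv_mem' := fun {a} ha => by
    simp only [Set.mem_ofPred_eq, Prod.fst_inv, Prod.snd_inv] at ha ⊢
    rw [← Matrix.mul_one (_ * inF K), ← map_one ρ, ← mul_inv_cancel a.2, map_mul, ← Matrix.mul_assoc,
      Matrix.mul_assoc _ (inF K), ← ha, ← Matrix.mul_assoc, Units.inv_mul, Matrix.one_mul]

theorem word_inF (hp : ((2 : ℤ) : K) = 0) {w : List (ℕ × PE)} {B : Matrix (Fin 4) (Fin 4) PE}
    (h : (∀ e ∈ w, e.1 < chevF4.nroots) ∧ ∀ j, (applyW chevF4 2 (w.map fun e => (e.1, e.2.toPol 2))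
      [(enc chevF4 (ixF j), [(1, 1)])] == vcons 37 ((B 3 j).toPol 2) (vcons 38 ((B 2 j).toPol 2)
        (vcons 39 ((B 1 j).toPol 2) (vcons 41 ((B 0 j).toPol 2) [])))) = true) (v : List K) :
    ((gword (SF K).x (evW v w) : GL chevF4.Idx K) : Matrix chevF4.Idx chevF4.Idx K) * inF K = inF K * B.map (PE.eval v) := by
  ext r j
  have h1 : ∀ i, inF K r i = if enc chevF4 (ixF i) = enc chevF4 r then 1 else 0 := fun i => by
    rw [inF, Matrix.submatrix_apply, Matrix.one_apply]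
    exact if_congr ⟨fun h => h ▸ rfl, fun h => (enc_inj _ h).symm⟩ rfl rfl
  conv_lhs => rw [inF, ← Matrix.submatrix_id_id (Units.val _), ← Matrix.submatrix_mul _ _ _ id _ Function.bijective_id,
    Matrix.mul_one, Matrix.submatrix_apply, coe_gword, wordMat_evW hp _ _ h.1, eq_of_beq (h.2 j)]
  simp only [Matrix.mul_apply, Fin.sum_univ_four, evV_vcons, evV_nil, evP_toPol hp, id, h1, Matrix.map_apply, ite_mul,
    one_mul, zero_mul]
  rw [show enc chevF4 (ixF 0) = 41 from rfl, show enc chevF4 (ixF 1) = 39 from rfl,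
    show enc chevF4 (ixF 2) = 38 from rfl, show enc chevF4 (ixF 3) = 37 from rfl]
  ring_nf

theorem mult_F4 [Fintype K] {m : ℕ} (hm : 1 ≤ m) (hK : Fintype.card K = 2 ^ (2 * m + 1)) :
    HasCyclicSchurMultiplier (TF (mkTh Nat.prime_two hK)).mt.Fix 1 := by
  let _ := H13.titsOfCard hK
  have Q := H13.par_of_card hm hK
  have M := H13.lieModel (H13.titsOfCard_θ hK)
  have hθ : ∀ t, H13.θ t = (mkTh Nat.prime_two hK).ψ t := fun _ => rfl
  generalize mkTh Nat.prime_two hK = θ at *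
  have : Finite (TF θ).mt.Fix := inferInstance
  refine H81.mult_trivial_iff.2 fun Γ _ _ σ hσ => ?_
  have e := Fix_F4 θ
  have hq : 2 ∣ Nat.card K := by rw [Q.card]; exact dvd_pow_self 2 (by omega)
  have hU : Nat.card ↥((TF θ).mt.U ⊓ (TF θ).mt.Fix) = 2 ^ ((2 * m + 1) * 12) := by
    rw [(TF θ).mt_U', e, card_U1_F4 θ, pow_mul, Q.card]
  have h3 := fun n hn => not_dvd_pow_sub (n := n) Nat.prime_two hq Nat.card_pos hn
  obtain ⟨π, h1, h2, ⟨L⟩, hs, hgen⟩ := (TF θ).mt.lift_of_stem hσ Nat.prime_two hU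
    (N := (Nat.card K ^ 1 - 1) * (Nat.card K ^ 3 + 1) * (Nat.card K ^ 4 - 1) * (Nat.card K ^ 6 + 1)) (by
      simp only [Nat.prime_two.dvd_mul, not_or]
      have h4 := fun n hn => not_dvd_add_one Nat.prime_two (dvd_pow (n := n) hq hn)
      exact ⟨⟨⟨h3 _ (by decide), h4 _ (by decide)⟩, h3 _ (by decide)⟩, h4 _ (by decide)⟩)
    (d := 1) (by rw [e, card_F4 θ, pow_mul, ← Q.card]; ring)
    (ppart_F4 θ (by have := Q.eight_le; rw [Nat.card_eq_fintype_card] at this; omega))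
  have h7 := card_H1_F4 θ
  rw [← e, ← (TF θ).mt_H'] at h7
  have hx : ∀ t, gword (SF K).x (ow θ.ψ [33, 24] t) = pr θ (θ.ψ t) := fun t => by rw [pr, θ.φψ]; rfl
  obtain ⟨⟨m0, hm0⟩, c0⟩ := L.sl2 (j := 0) (sl2ow (SF K) θ.ψ (L := [33, 24]) (by decide) (by decide +kernel)
    (by decide +kernel)) (fun t => ⟨g2_mem_XJ θ _ _, (hx t).symm ▸ pr_mem_Fix θ _⟩)
    (fun x hx' hf => by obtain ⟨t, rfl⟩ := exists_pr θ hx' hf; exact ⟨θ.φ t, by rw [← θ.ψφ t, ← hx, θ.ψφ]; rfl⟩)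
    ((sl2ow_w ..).trans (nw_eq_onw (SF K) θ.ψ [0, 3]).symm) (fun t ht => by
      rw [H39.SL2Rel.h, sl2ow_w, sl2ow_w]
      exact (isH_onw (SF K) θ.ψ (L := [0, 3]) (by decide) (by decide +kernel) (Units.mk0 t ht)).1)
    (hs _ ((TF θ).mt.n_mem_Fix 0))
  obtain ⟨m1, hm1⟩ : ∃ g ∈ L.Lh 1, π g = (TF θ).mt.n 1 := by
    obtain ⟨g, hg⟩ := hs _ ((TF θ).mt.n_mem_Fix 1)
    have h4 := fun t u => L.map _ ((TF θ).mt.XJ_le 1 (g4_mem_XJ θ _ _ _ _)) (su_mem_Fix θ t u)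
    have h5 := fun t u => L.s_mem_Lh (j := 1) (Or.inl (g4_mem_XJ θ _ _ _ _)) (su_mem_Fix θ t u)
    refine ⟨_, mul_mem (mul_mem (h5 1 0) (?_ : g * L.s (su θ 0 1) * g⁻¹ ∈ _)) (h5 1 1), ?_⟩
    · rw [L.conj _ _ (su_mem_Fix θ 0 1), hg]
      exact L.s_mem_Lh (Or.inr ((TF θ).mt.n_conj_XJ' (g4_mem_XJ θ _ _ _ _))) (mul_mem (mul_mem
        ((TF θ).mt.n_mem_Fix 1) (su_mem_Fix θ 0 1)) (inv_mem ((TF θ).mt.n_mem_Fix 1)))
    · simp only [map_mul, map_inv, hg]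
      exact (congrArg₂ _ (congrArg₂ _ (h4 1 0) (by rw [show π (L.s (su θ 0 1)) = su θ 0 1 from h4 0 1])) (h4 1 1)).trans
        (n1_eq θ).symm
  have hR : ∀ t u, (su θ t u, M.u (θ.φ t) (θ.φ t * t + u)) ∈ relF M.ρ := fun t u => by
    refine (word_inF θ.cast_p (w := w4 (var 0) (var 1) (var 2) (var 3)) (B := !![one, var 0,
      add (mul (var 0) (var 1)) (var 2), add (mul (var 0) (var 2)) (var 3); zero, one, var 1, var 2;
      zero, zero, one, var 0; zero, zero, zero, one]) (by decide +kernel) [θ.φ t, t, θ.φ t * t + u, θ.ψ u]).trans ?_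
    rw [M.ρ_u]
    congr 1
    ext i j
    fin_cases i <;> fin_cases j <;> simp [H13.uM, H13.fo, PE.eval, hθ, θ.ψφ, add_comm]
    rw [θ.ψ_def t]
    linear_combination (-t * θ.φ t ^ 2) * two_eq_zero θ
  have c1 := L.sz hm1 ((TF θ).levi 1) M Q (relF M.ρ) (fun z hz => M.inj (inF_cancel (hz.symm.trans (by simp))))
    (fun x hx hf => by
      obtain ⟨t, u, rfl⟩ := exists_su θ hx hf
      refine ⟨_, _, hR t u, fun h4 h5 => ?_⟩
      rw [h4, zero_mul, zero_add] at h5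
      rw [(map_eq_zero θ.φ).1 h4, h5, su_zero])
    (fun a b => ⟨su θ (θ.ψ a) (b - a * θ.ψ a), g4_mem_XJ θ _ _ _ _, su_mem_Fix θ _ _,
      by simpa [θ.φψ] using hR (θ.ψ a) (b - a * θ.ψ a)⟩) (by
      refine Eq.trans ?_ ((word_inF θ.cast_p (w := nwPE chevF4 [1, 2, 1, 2]) (B := !![zero, zero, zero, one;
        zero, zero, one, zero; zero, one, zero, zero; one, zero, zero, zero]) (by decide +kernel) []).trans ?_)
      · rw [← nw_eq_gword]; rfl
      · rw [M.ρ_w]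
        congr 1
        ext i j
        fin_cases i <;> fin_cases j <;> simp [H13.JM, PE.eval]) h2
    (fun h => h3 1 one_ne_zero (by rw [pow_one]; exact Nat.prime_two.dvd_of_dvd_pow (h7 ▸ h)))
  have h6 := L.card_dvd (m := ![m0, m1]) (Fin.forall_fin_two.2 ⟨hm0, hm1⟩) (TF θ).levi
    (e.trans (G0_F4 θ).symm).le hs hgen
  rw [Fin.prod_univ_two, h1] at h6
  replace h6 := h6.trans (mul_dvd_mul c0 c1)
  rw [Nat.card_units, ← sq, ← h7] at h6
  exact Subgroup.card_eq_one.1 (Nat.dvd_one.1 (Nat.dvd_of_mul_dvd_mul_right Nat.card_pos (by rwa [one_mul])))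

end Cfsg.Agent.H40
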