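import Cfsg.Agent.H40.PpD
import Cfsg.Agent.S0791

/-!
The Schur multiplier of the orthogonal groups of minus type.
-/

set_option autoImplicit false

namespace Cfsg.Agent.H40

open QuadraticMap CliffordAlgebra

section Cl

variable {F V : Type*} [Field F] [AddCommGroup V] [Module F V] {Q : QuadraticForm F V}

theorem ι_anti {a b : V} (h : polar Q a b = 0) : ι Q a * ι Q b = -(ι Q b * ι Q a) := by
  rw [eq_neg_iff_add_eq_zero, ι_mul_ι_add_swap, h, map_zero]

theorem ι_mul_prod {x : V} : ∀ L : List V, (∀ w ∈ L, polar Q x w = 0) →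
    ι Q x * (L.map (ι Q)).prod = (-1 : F) ^ L.length • ((L.map (ι Q)).prod * ι Q x)
  | [], _ => by simp
  | y :: L, h => by
    rw [List.map_cons, List.prod_cons, ← mul_assoc, ι_anti (h y (by simp)), neg_mul, mul_assoc,
      ι_mul_prod L fun w hw => h w (by simp [hw]), List.length_cons, pow_succ]
    simp [mul_assoc]

theorem ι_mul_prod_of_mem {x : V} : ∀ L : List V, L.Pairwise (fun a b => polar Q a b = 0) → x ∈ L →
    ι Q x * (L.map (ι Q)).prod = -((-1 : F) ^ L.length • ((L.map (ι Q)).prod * ι Q x))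
  | y :: L, h, hx => by
    rw [List.pairwise_cons] at h
    rw [List.map_cons, List.prod_cons, List.length_cons, pow_succ]
    rcases List.mem_cons.1 hx with rfl | hx
    · rw [mul_assoc, ← one_smul F (ι Q x * (ι Q x * _)), ← (even_two_mul L.length).neg_one_pow, two_mul, pow_add,
        mul_smul, ← mul_smul_comm _ (ι Q x), ι_mul_prod L h.1, smul_smul, ← pow_add, ← two_mul,
        (even_two_mul L.length).neg_one_pow]
      simp
    · rw [← mul_assoc, ι_anti (psw (h.1 x hx)), neg_mul, mul_assoc, ι_mul_prod_of_mem L h.2 hx]; simp [mul_assoc]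

theorem reverse_prod : ∀ L : List V, L.Pairwise (fun a b => polar Q a b = 0) →
    reverse (L.map (ι Q)).prod = (-1 : F) ^ L.length.choose 2 • (L.map (ι Q)).prod
  | [], _ => by simp
  | y :: L, h => by
    rw [List.pairwise_cons] at h
    rw [List.map_cons, List.prod_cons, reverse.map_mul, reverse_ι, reverse_prod L h.2, ι_mul_prod L h.1, List.length_cons,
      Nat.choose_succ_succ', Nat.choose_one_right, smul_smul, pow_add, mul_right_comm, ← mul_pow]
    simp

theorem sq_eq_neg_one [FiniteDimensional F V] (h2 : (2 : F) ≠ 0) (hQ : (polarBilin Q).Nondegenerate)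
    (hd : Module.finrank F V % 4 = 2) {u : CliffordAlgebra Q} (hu : IsUnit u)
    (h1 : ∀ v, involute u * ι Q v = ι Q (-v) * u) (h3 : u * reverse u = 1) : u * u = -1 := by
  have := invertibleOfNonzero h2
  obtain ⟨v, hv⟩ := LinearMap.BilinForm.exists_orthogonal_basis (B := polarBilin Q) ⟨fun x y => polar_comm _ _ _⟩
  have hp : (List.ofFn v).Pairwise (fun a b => polar Q a b = 0) := List.pairwise_ofFn.2 fun i j h => hv h.ne
  have he : Even (List.ofFn v).length := by rw [List.length_ofFn, Nat.even_iff]; omega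
  have ho : Odd ((List.ofFn v).length.choose 2) := by
    obtain ⟨k, hk⟩ : ∃ k, Module.finrank F V = 4 * k + 2 := ⟨Module.finrank F V / 4, by omega⟩
    rw [List.length_ofFn, Nat.choose_two_right, hk, show (4 * k + 2) * (4 * k + 2 - 1) = 2 * ((2 * k + 1) * (4 * k + 1)) by
      rw [show 4 * k + 2 - 1 = 4 * k + 1 from rfl]; ring, Nat.mul_div_cancel_left _ two_pos]
    exact (odd_two_mul_add_one k).mul ⟨2 * k, by ring⟩
  have hω : IsUnit ((List.ofFn v).map (ι Q)).prod := List.prod_isUnit fun m hm => by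
    obtain ⟨x, hx, rfl⟩ := List.mem_map.1 hm
    obtain ⟨i, rfl⟩ := List.mem_ofFn.1 hx
    refine isUnit_ι_of_isUnit Q (Ne.isUnit fun e => v.ne_zero i (hQ.1 _ fun y => ?_))
    rw [← v.sum_repr y, map_sum]
    refine Finset.sum_eq_zero fun j _ => ?_
    rcases eq_or_ne i j with rfl | h
    · simp [e]
    · rw [map_smul, show polarBilin Q (v i) (v j) = 0 from hv h, smul_zero]
  have h4 := reverse_prod _ hp
  have h5 := involute_prod_map_ι (Q := Q) (List.ofFn v)
  have h6 : ∀ x, ι Q x * ((List.ofFn v).map (ι Q)).prod = -(((List.ofFn v).map (ι Q)).prod * ι Q x) := fun x => by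
    rw [← v.sum_repr x, map_sum, Finset.sum_mul, Finset.mul_sum, ← Finset.sum_neg_distrib]
    refine Finset.sum_congr rfl fun i _ => ?_
    rw [map_smul, smul_mul_assoc, ι_mul_prod_of_mem _ hp (List.mem_ofFn.2 ⟨i, rfl⟩), he.neg_one_pow]
    simp
  rw [ho.neg_one_pow, neg_one_smul] at h4
  rw [he.neg_one_pow, one_smul] at h5
  generalize ((List.ofFn v).map (ι Q)).prod = ω at *
  obtain ⟨c, hc⟩ := H28.scalar_of_twisted_commute hQ (x := u * ω) fun x => by
    rw [map_mul, h5, mul_assoc, ← neg_neg (ω * _), ← h6, mul_neg, ← mul_assoc, h1]; simp [mul_assoc]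
  have h7 : ω * u = algebraMap F _ c := hu.mul_right_inj.1 (by rw [← mul_assoc, hc, Algebra.commutes])
  have h8 := congrArg reverse hc
  rw [reverse.map_mul, h4, reverse.commutes, ← h7, neg_mul_comm, hω.mul_right_inj] at h8
  rw [← h3, ← mul_neg, h8]

end Cl

universe u

section Spin

variable {F : Type u} [Field F] [Finite F] {κ : Type} [Fintype κ] [DecidableEq κ] {Q : QuadraticForm F (κ → F)}

theorem omega_top (h : H11.ND Q) (hd : 5 ≤ Fintype.card κ) : commutator (Omega F ⇑Q) = ⊤ := by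
  let e := (H11.commEquiv (H11.isoOG Q _ fun _ => rfl)).toMonoidHom
  apply Subgroup.map_injective (f := (Subgroup.subtype _).comp e)
    ((Subgroup.subtype_injective _).comp (MulEquiv.injective _))
  rw [map_commutator_eq, ← MonoidHom.range_eq_map, ← MonoidHom.map_range, MonoidHom.range_eq_top.2 (MulEquiv.surjective _),
    ← MonoidHom.range_eq_map, Subgroup.range_subtype]
  exact h.omega_perfect (by simpa using hd)

omit [Finite F] in
theorem card_center_Omega :
    Nat.card (Subgroup.center (Omega F ⇑Q)) = Nat.card (Subgroup.center (commutator (H11.OG Q))) :=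
  Nat.card_congr (Subgroup.centerCongr (H11.commEquiv (H11.isoOG Q _ fun _ => rfl))).toEquiv

theorem spin_multiplier (h2 : (2 : F) ≠ 0) {u v w : κ → F} (hu : Q u = 1) (hv : Q v = 1) (hw : Q w = 1)
    (huv : polar Q u v = 0) (huw : polar Q u w = 0) (hvw : polar Q v w = 0) (h : H11.ND Q) (hd : 5 ≤ Fintype.card κ)
    (key : ∀ (Γ : Type u) [Group Γ] [Finite Γ] (π : Γ →* Omega F ⇑Q), IsStemExtension π → Nat.card π.ker ≤ 2)
    (h4 : H11.negOne Q ∈ commutator (H11.OG Q) → Fintype.card κ % 4 = 2) :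
    HasCyclicSchurMultiplier (POmega F ⇑Q) (2 * Nat.card (Subgroup.center (Omega F ⇑Q))) := by
  have hQ := h.nondegenerate
  have h0 := omega_top h hd
  have hd' : 5 ≤ Module.finrank F (κ → F) := by simpa using hd
  obtain ⟨k1, k2, k3⟩ := H39.exists_spin h2 hu hv hw huv huw hvw hQ h0
  have hs := H39.spinProj_surjective hQ (H28.eichOK_of_two_ne_zero h2)
  have hk : (H39.spinProj Q).ker ≤ ((QuotientGroup.mk' (Subgroup.center _)).comp (H39.spinProj Q)).ker := fun x hx => by
    rw [MonoidHom.mem_ker, MonoidHom.comp_apply, MonoidHom.mem_ker.1 hx, map_one]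
  have hΔ := H81.isPerfect_of_stem ⟨h0⟩ (σ := H39.spinProj _) ⟨hs, hk.trans k2.2.1, hk.trans k2.2.2⟩
  have hc : IsCyclic ((QuotientGroup.mk' (Subgroup.center _)).comp (H39.spinProj Q)).ker := by
    rw [card_center_Omega] at k3
    by_cases h5 : H11.negOne Q ∈ commutator (H11.OG Q)
    · rw [h.card_center_omega_two hd' h2 h5] at k3
      obtain ⟨g, hg, e⟩ := (H11.negOne_mem_iff Q _ fun _ => rfl).1 h5
      obtain ⟨u, hu⟩ := hs ⟨g, hg⟩
      have h7 := sq_eq_neg_one h2 hQ (by simpa using h4 h5) u.1.2.isUnit (fun v => by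
        rw [u.2.1 v, show u.1.1 = ⟨g, hg⟩ from hu, H28.rho_apply, show H28.mat g = -1 from e, Matrix.neg_mulVec,
          Matrix.one_mulVec]) u.2.2
      have h8 : u ∈ ((QuotientGroup.mk' (Subgroup.center _)).comp (H39.spinProj Q)).ker := by
        rw [MonoidHom.mem_ker, MonoidHom.comp_apply, hu]
        exact (QuotientGroup.eq_one_iff _).2 (Subgroup.mem_center_iff.2 fun x => Subtype.ext (H28.O_ext_mat (by
          change H28.mat x.1 * H28.mat g = H28.mat g * H28.mat x.1
          rw [show H28.mat g = -1 from e]; simp)))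
      refine isCyclic_of_orderOf_eq_card ⟨u, h8⟩ (k3 ▸ orderOf_eq_prime_pow (p := 2) (n := 1) (fun e => h2 ?_)
        (by rw [show 2 ^ (1 + 1) = 2 * 2 from rfl, ← k3, pow_card_eq_one']))
      have h9 : (u.1.2 : CliffordAlgebra Q) * u.1.2 = 1 := by
        simpa [pow_two] using congrArg (fun x => (x.1.1.2 : CliffordAlgebra Q)) e
      have := H28.clifford_algebraMap_injective Q (a₁ := 1) (a₂ := -1) (by rw [map_neg, map_one, ← h7, h9])
      linear_combination this
    · rw [h.card_center_omega_one hd' (.inr h5)] at k3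
      exact isCyclic_of_prime_card (p := 2) k3
  refine H39.hasSchur_of_trivial hΔ.commutator_eq_top (H81.mult_trivial_iff.2 fun Γ _ _ π hπ => ?_) _ k2.1 k2.2.1
    (mulEquivOfCyclicCardEq (by rw [k3, Nat.card_congr Multiplicative.toAdd, Nat.card_zmod]))
  have h5 := key Γ ((H39.spinProj _).comp π) ⟨hs.comp hπ.1, H39.comp_ker_le_center hΔ.commutator_eq_top hπ.1 hπ.2.1
    (hk.trans k2.2.1), (H81.isPerfect_of_stem hΔ hπ).commutator_eq_top ▸ le_top⟩
  rw [H39.card_ker_comp _ hπ.1, H39.card_ker_spinProj hQ h2] at h5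
  exact Subgroup.card_eq_one.1 (le_antisymm (by omega) Nat.card_pos)

theorem even_multiplier (h2 : (2 : F) = 0) (h : H11.ND Q) (hd : 5 ≤ Fintype.card κ)
    (key : ∀ (Γ : Type u) [Group Γ] [Finite Γ] (π : Γ →* Omega F ⇑Q), IsStemExtension π → π.ker = ⊥) :
    HasCyclicSchurMultiplier (POmega F ⇑Q) 1 := by
  have hZ := card_center_Omega.trans (h.card_center_omega_one (by simpa using hd) (.inl h2))
  rw [← QuotientGroup.ker_mk' (Subgroup.center _)] at hZ
  have := isCyclic_of_card_dvd_prime (p := 2) (hZ ▸ one_dvd 2)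
  exact H39.hasSchur_of_trivial (omega_top h hd) (H81.mult_trivial_iff.2 key) _ (QuotientGroup.mk'_surjective _)
    (QuotientGroup.ker_mk' _).le (mulEquivOfCyclicCardEq (by rw [hZ, Nat.card_congr Multiplicative.toAdd, Nat.card_zmod]))

end Spin

theorem multiplier_minus {F : Type*} [Field F] [Fintype F] {a b : F}
    (hab : ∀ z₁ z₂ : F, z₁ ^ 2 + a * z₁ * z₂ + b * z₂ ^ 2 = 0 → z₁ = 0 ∧ z₂ = 0) {n : ℕ} (hn : 2 ≤ n) :
    HasCyclicSchurMultiplier (POmega F (quadFormMinus (n + 1) F a b)) (Nat.gcd 4 (Fintype.card F ^ (n + 2) + 1)) := by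
  obtain ⟨p, hp⟩ := CharP.exists F
  have : Fact p.Prime := ⟨CharP.char_is_prime F p⟩
  have h : H11.ND (H28.qMinus (n + 1) F a b) := H11.nd_of_nondegenerate (H28.qMinus_nondeg (n + 1) hab)
  have hd : 5 ≤ Fintype.card ((Fin (n + 1) ⊕ Fin (n + 1)) ⊕ Fin 2) := by simp; omega
  have key := fun (Γ : Type _) [Group Γ] [Finite Γ] (π : Γ →* Omega F (quadFormMinus (n + 1) F a b)) hs =>
    card_ker_minus p hab (by omega) (π := π) hs (omega_top h hd) (not_dvd_minus p hab (by omega) hs)
  have hpar : (2 : F) ≠ 0 ↔ Fintype.card F ^ (n + 2) % 2 = 1 := by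
    rw [H11.two_ne_zero_iff_odd, ← Nat.odd_iff, Nat.odd_pow_iff (by omega)]
  rw [Nat.gcd_rec]
  by_cases h2 : (2 : F) = 0
  · have h3 := mt hpar.2 (not_not.2 h2)
    obtain rfl : p = 2 := (Nat.prime_dvd_prime_iff_eq Fact.out Nat.prime_two).1 ((CharP.cast_eq_zero_iff F p 2).1 h2)
    have := even_multiplier h2 h hd fun Γ _ _ π hs => (key Γ π hs).2 rfl
    rcases (by omega : (Fintype.card F ^ (n + 2) + 1) % 4 = 1 ∨ (Fintype.card F ^ (n + 2) + 1) % 4 = 3) with e | e <;>
      rw [e] <;> exact this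
  have hv : ∀ i : Fin (n + 1), H28.qMinus (n + 1) F a b (Pi.single (.inl (.inl i)) 1 + Pi.single (.inl (.inr i)) 1) = 1 :=
    fun i => by simp [H11.Q_add, H28.qMinus_single, H28.qMinus_polar_inl]
  have hw : ∀ i j : Fin (n + 1), i ≠ j → polar (H28.qMinus (n + 1) F a b)
      (Pi.single (.inl (.inl i)) 1 + Pi.single (.inl (.inr i)) 1)
      (Pi.single (.inl (.inl j)) 1 + Pi.single (.inl (.inr j)) 1) = 0 := fun i j h => by
    simp [polar_add_left, H28.qMinus_polar_inl, H28.qMinus_polar_inr, h]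
  have h3 := hpar.1 h2
  have h4 := (H11.negOne_mem_iff (H28.qMinus (n + 1) F a b) _ fun _ => rfl).trans
    (S0791.result rfl (H11.two_ne_zero_iff_odd.1 h2) (n + 2) (by omega) a b hab)
  have h5 := spin_multiplier h2 (hv ⟨0, by omega⟩) (hv ⟨1, by omega⟩) (hv ⟨2, by omega⟩) (hw _ _ (by simp))
    (hw _ _ (by simp)) (hw _ _ (by simp)) h hd (fun Γ _ _ π hs => (key Γ π hs).1) fun h5 => by
      have h5 := h4.1 h5
      by_contra h6
      obtain ⟨k, hk⟩ : ∃ k, n + 2 = k * 2 := ⟨(n + 2) / 2, by simp at h6; omega⟩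
      rw [hk, pow_mul, Nat.pow_mod] at h5
      rcases (by omega : ∀ x, x % 4 = 0 ∨ x % 4 = 1 ∨ x % 4 = 2 ∨ x % 4 = 3) (Fintype.card F ^ k) with
        e | e | e | e <;> simp [e] at h5
  rw [card_center_Omega] at h5
  by_cases h6 : Fintype.card F ^ (n + 2) % 4 = 3
  · rw [h.card_center_omega_two (by simpa using hd) h2 (h4.2 h6)] at h5
    rwa [show (Fintype.card F ^ (n + 2) + 1) % 4 = 0 by omega]
  · rw [h.card_center_omega_one (by simpa using hd) (.inr (mt h4.1 h6))] at h5
    rwa [show (Fintype.card F ^ (n + 2) + 1) % 4 = 2 by omega]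

end Cfsg.Agent.H40
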